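import Mathlib
import Cfsg.Prelude.Def_Characters
import Cfsg.Prelude.Def_Blocks
import Cfsg.Agent.Lib.Helper75.CharInd
import Cfsg.Agent.Lib.Helper75.CharDecomp
import Cfsg.Agent.Lib.Helper79.ClassMult
import Cfsg.Agent.Lib.Helper79.Linear
import Cfsg.Agent.Lib.Helper79.CharSum
import Cfsg.Agent.Lib.Helper80.CharKer
import Cfsg.Agent.Lib.Helper80.OneDegree

set_option autoImplicit false

/-!
# Character-theoretic part of Ito's theorem on `p`-soluble linear groups (helper96)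
-/

namespace Cfsg.Agent.Lib.Helper96.Ito

open Cfsg
open scoped ComplexConjugate

universe u

/-- Degree of a character as the sum of the degrees of its constituents. -/
theorem charDegree_eq_sum {G : Type u} [Group G] [Finite G] [Fintype (IrrCharacter G)]
    {χ : G → ℂ} (hχ : IsCharacter G χ) (m : IrrCharacter G → ℕ)
    (hsum : χ = ∑ ψ : IrrCharacter G, (m ψ : ℂ) • (ψ : G → ℂ)) :
    charDegree χ = ∑ ψ : IrrCharacter G, m ψ * charDegree (ψ : G → ℂ) := by
  have h1 : χ 1 = ∑ φ : IrrCharacter G, (m φ : ℂ) * (φ : G → ℂ) 1 := by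
    have h2 := congrFun hsum 1
    simp only [Finset.sum_apply, Pi.smul_apply, smul_eq_mul] at h2
    exact h2
  rw [Helper80.char_one_eq_charDegree hχ] at h1
  have h3 : ∀ φ : IrrCharacter G, (φ : G → ℂ) 1 = (charDegree (φ : G → ℂ) : ℂ) :=
    fun φ => (Helper79.irr_charDegree φ.2).1
  simp only [h3] at h1
  exact_mod_cast h1

/-- A character having an irreducible constituent of at least its own degree is that
constituent. -/
theorem eq_irr_of_degree_le {G : Type u} [Group G] [Fintype G] {χ : G → ℂ}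
    (hχ : IsCharacter G χ) (φ : IrrCharacter G) (hne : classInner χ (φ : G → ℂ) ≠ 0)
    (hdeg : charDegree χ ≤ charDegree (φ : G → ℂ)) : χ = (φ : G → ℂ) := by
  classical
  haveI : Fintype (IrrCharacter G) := Fintype.ofFinite _
  obtain ⟨m, hm, hsum⟩ := Helper75.char_eq_sum_irr hχ
  have hmφ : m φ ≠ 0 := by
    intro h0
    apply hne
    rw [hm φ, h0]
    simp
  have hd := charDegree_eq_sum hχ m hsum
  have hpos : ∀ ψ : IrrCharacter G, 0 < charDegree (ψ : G → ℂ) :=
    fun ψ => (Helper79.irr_charDegree ψ.2).2.1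
  have hsplit : ∑ ψ : IrrCharacter G, m ψ * charDegree (ψ : G → ℂ) =
      m φ * charDegree (φ : G → ℂ) +
        ∑ ψ ∈ (Finset.univ : Finset (IrrCharacter G)).erase φ, m ψ * charDegree (ψ : G → ℂ) :=
    (Finset.add_sum_erase _ _ (Finset.mem_univ φ)).symm
  have h1 : m φ = 1 ∧
      ∑ ψ ∈ (Finset.univ : Finset (IrrCharacter G)).erase φ, m ψ * charDegree (ψ : G → ℂ) = 0 := by
    have h2 : m φ * charDegree (φ : G → ℂ) +
        ∑ ψ ∈ (Finset.univ : Finset (IrrCharacter G)).erase φ, m ψ * charDegree (ψ : G → ℂ) ≤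
        charDegree (φ : G → ℂ) := by
      rw [← hsplit, ← hd]; exact hdeg
    have h3 : charDegree (φ : G → ℂ) ≤ m φ * charDegree (φ : G → ℂ) :=
      Nat.le_mul_of_pos_left _ (Nat.pos_of_ne_zero hmφ)
    constructor
    · by_contra hne1
      have h4 : 2 ≤ m φ := by omega
      have h5 : 2 * charDegree (φ : G → ℂ) ≤ m φ * charDegree (φ : G → ℂ) :=
        Nat.mul_le_mul_right _ h4
      have := hpos φ
      omega
    · omega
  have h0 : ∀ ψ : IrrCharacter G, ψ ≠ φ → m ψ = 0 := by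
    intro ψ hψ
    have h2 := (Finset.sum_eq_zero_iff.mp h1.2) ψ (Finset.mem_erase.mpr ⟨hψ, Finset.mem_univ _⟩)
    rcases Nat.mul_eq_zero.mp h2 with h | h
    · exact h
    · exact absurd h (hpos ψ).ne'
  rw [hsum, Finset.sum_eq_single φ (fun ψ _ hψ => by rw [h0 ψ hψ]; simp)
    (fun h => absurd (Finset.mem_univ φ) h), h1.1]
  simp

/-- A `p`-subgroup of a group with a faithful character of degree below `p` is abelian. -/
theorem comm_of_faithful {G : Type u} [Group G] [Finite G] (p : ℕ) (hp : p.Prime) {χ : G → ℂ}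
    (hχ : IsCharacter G χ) (hfaith : ∀ g : G, χ g = χ 1 → g = 1) (hdeg : charDegree χ < p)
    (P : Subgroup G) (hP : IsPGroup p P) : ∀ a ∈ P, ∀ b ∈ P, a * b = b * a := by
  classical
  haveI : Fintype P := Fintype.ofFinite _
  haveI : Fintype (IrrCharacter P) := Fintype.ofFinite _
  have hres := Helper75.isCharacter_res P hχ
  obtain ⟨m, hm, hsum⟩ := Helper75.char_eq_sum_irr hres
  have hd := charDegree_eq_sum hres m hsum
  have hdeg' : charDegree (fun h : P => χ h) = charDegree χ := rfl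
  haveI : Fact p.Prime := ⟨hp⟩
  obtain ⟨k, hk⟩ := IsPGroup.iff_card.mp hP
  have hlin : ∀ φ : IrrCharacter P, m φ ≠ 0 → (φ : P → ℂ) 1 = 1 := by
    intro φ hφ
    obtain ⟨h1, hpos, hdvd⟩ := Helper79.irr_charDegree φ.2
    rw [hk] at hdvd
    obtain ⟨j, -, hj⟩ := (Nat.dvd_prime_pow hp).mp hdvd
    have hle : charDegree (φ : P → ℂ) ≤ charDegree χ := by
      rw [← hdeg', hd]
      calc charDegree (φ : P → ℂ) ≤ m φ * charDegree (φ : P → ℂ) :=
            Nat.le_mul_of_pos_left _ (Nat.pos_of_ne_zero hφ)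
        _ ≤ ∑ ψ : IrrCharacter P, m ψ * charDegree (ψ : P → ℂ) :=
            Finset.single_le_sum (f := fun ψ : IrrCharacter P => m ψ * charDegree (ψ : P → ℂ))
              (fun _ _ => Nat.zero_le _) (Finset.mem_univ φ)
    have hj0 : j = 0 := by
      by_contra hne
      have h2 : p ^ 1 ≤ p ^ j := Nat.pow_le_pow_right hp.pos (Nat.pos_of_ne_zero hne)
      rw [pow_one] at h2
      omega
    rw [h1, hj, hj0]
    simp
  intro a ha b hb
  set c : P := ⟨a, ha⟩ * ⟨b, hb⟩ * ⟨a, ha⟩⁻¹ * ⟨b, hb⟩⁻¹ with hcdef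
  have hc : c ∈ commutator P := by
    rw [commutator_def]
    have := Subgroup.commutator_mem_commutator (Subgroup.mem_top (⟨a, ha⟩ : P))
      (Subgroup.mem_top (⟨b, hb⟩ : P))
    rwa [commutatorElement_def] at this
  have hval : χ (c : G) = χ 1 := by
    have e1 := congrFun hsum c
    have e2 := congrFun hsum 1
    simp only [Finset.sum_apply, Pi.smul_apply, smul_eq_mul] at e1 e2
    have e3 : ∀ φ : IrrCharacter P, (m φ : ℂ) * (φ : P → ℂ) c = (m φ : ℂ) * (φ : P → ℂ) 1 := by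
      intro φ
      by_cases h0 : m φ = 0
      · rw [h0]; simp
      · rw [Helper79.linear_irr_commutator φ.2 (hlin φ h0) hc, hlin φ h0]
    rw [Finset.sum_congr rfl (fun φ _ => e3 φ), ← e2] at e1
    exact e1
  have h1 := hfaith _ hval
  have h2 : a * b * a⁻¹ * b⁻¹ = 1 := by
    rw [← h1, hcdef]
    rfl
  calc a * b = (a * b * a⁻¹ * b⁻¹) * (b * a) := by group
    _ = b * a := by rw [h2, one_mul]

/-- `K × P → G`, `(a, y) ↦ a y` is a bijection when `G = K ⋊ P`. -/
theorem prod_bij {G : Type*} [Group G] (P K : Subgroup G) [K.Normal] (hPK : P ⊓ K = ⊥)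
    (htop : P ⊔ K = ⊤) : Function.Bijective (fun x : K × P => (x.1 : G) * (x.2 : G)) := by
  constructor
  · rintro ⟨a, y⟩ ⟨a', y'⟩ h
    simp only at h
    have h1 : (a' : G)⁻¹ * a = y' * (y : G)⁻¹ := by
      calc (a' : G)⁻¹ * a = (a' : G)⁻¹ * (a * y) * (y : G)⁻¹ := by group
        _ = (a' : G)⁻¹ * (a' * y') * (y : G)⁻¹ := by rw [h]
        _ = y' * (y : G)⁻¹ := by group
    have h2 : (a' : G)⁻¹ * a ∈ P ⊓ K :=
      Subgroup.mem_inf.mpr ⟨by rw [h1]; exact P.mul_mem y'.2 (P.inv_mem y.2),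
        K.mul_mem (K.inv_mem a'.2) a.2⟩
    rw [hPK, Subgroup.mem_bot] at h2
    have h3 : (a : G) = a' := by
      calc (a : G) = a' * ((a' : G)⁻¹ * a) := by group
        _ = a' := by rw [h2, mul_one]
    have h4 : (y : G) = y' := by
      have h5 : (y' : G) * (y : G)⁻¹ = 1 := by rw [← h1, h2]
      calc (y : G) = ((y' : G) * (y : G)⁻¹)⁻¹ * y' := by group
        _ = y' := by rw [h5, inv_one, one_mul]
    exact Prod.ext (Subtype.ext h3) (Subtype.ext h4)
  · intro g
    have hg : g ∈ K ⊔ P := by rw [sup_comm, htop]; exact Subgroup.mem_top g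
    rw [← SetLike.mem_coe, Subgroup.normal_mul] at hg
    obtain ⟨a, ha, y, hy, rfl⟩ := Set.mem_mul.mp hg
    exact ⟨(⟨a, ha⟩, ⟨y, hy⟩), rfl⟩

/-- The sum of `|ψ|²` over the complement `P`, when `ψ` restricts irreducibly to `K` and the
noncentral cosets `K y` consist of conjugates of central multiples of `y`. -/
theorem sum_norm_sq_compl {G : Type u} [Group G] [Finite G] (P K : Subgroup G) [K.Normal]
    (hPK : P ⊓ K = ⊥) (htop : P ⊔ K = ⊤) {ψ : G → ℂ} (hψ : IsIrrCharacter G ψ)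
    (hψK : IsIrrCharacter K (fun k : K => ψ k))
    (hconj : ∀ y ∈ P, y ∉ Subgroup.center G → ∀ a ∈ K,
      ∃ b : G, ∃ z ∈ Subgroup.center G, a * y = b * (z * y) * b⁻¹)
    [Fintype P] :
    ∑ y : P, ‖ψ y‖ ^ 2 =
      (Nat.card ((Subgroup.center G).subgroupOf P) : ℝ) * ‖ψ 1‖ ^ 2 + (Nat.card P : ℝ)
        - (Nat.card ((Subgroup.center G).subgroupOf P) : ℝ) := by
  classical
  haveI : Fintype G := Fintype.ofFinite G
  haveI : Fintype K := Fintype.ofFinite K
  have hG := Helper80.sum_norm_sq_eq_card hψ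
  have hK : ∑ a : K, ‖ψ (a : G)‖ ^ 2 = (Nat.card K : ℝ) := Helper80.sum_norm_sq_eq_card hψK
  have hbij := prod_bij P K hPK htop
  have hsum : ∑ g : G, ‖ψ g‖ ^ 2 = ∑ y : P, ∑ a : K, ‖ψ ((a : G) * (y : G))‖ ^ 2 := by
    rw [Finset.sum_comm,
      ← Fintype.sum_prod_type (f := fun x : K × P => ‖ψ ((x.1 : G) * (x.2 : G))‖ ^ 2)]
    exact (Fintype.sum_bijective _ hbij _ _ (fun x => rfl)).symm
  have hcard : (Nat.card G : ℝ) = (Nat.card K : ℝ) * (Nat.card P : ℝ) := by
    rw [← Nat.card_congr (Equiv.ofBijective _ hbij), Nat.card_prod]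
    push_cast
    ring
  have hcentral : ∀ z ∈ Subgroup.center G, ∀ g : G, ‖ψ (z * g)‖ = ‖ψ g‖ := by
    intro z hz g
    obtain ⟨ω, hω, h⟩ := Helper80.central_char_mul hψ hz
    rw [h g, norm_mul, Complex.norm_eq_one_of_pow_eq_one hω (orderOf_pos z).ne', one_mul]
  have hconjinv : ∀ g b : G, ψ (b * g * b⁻¹) = ψ g := fun g b => Helper79.irr_conj_eq hψ g b
  have hinner : ∀ y : P, ∑ a : K, ‖ψ ((a : G) * (y : G))‖ ^ 2 =
      if (y : G) ∈ Subgroup.center G then (Nat.card K : ℝ)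
      else (Nat.card K : ℝ) * ‖ψ y‖ ^ 2 := by
    intro y
    split_ifs with hy
    · rw [← hK]
      refine Finset.sum_congr rfl (fun a _ => ?_)
      rw [Subgroup.mem_center_iff.mp hy (a : G), hcentral _ hy]
    · have h1 : ∀ a : K, ‖ψ ((a : G) * (y : G))‖ ^ 2 = ‖ψ y‖ ^ 2 := by
        intro a
        obtain ⟨b, z, hz, hbz⟩ := hconj y y.2 hy a a.2
        rw [hbz, hconjinv, hcentral z hz]
      rw [Finset.sum_congr rfl (fun a _ => h1 a), Finset.sum_const, Finset.card_univ,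
        nsmul_eq_mul, Nat.card_eq_fintype_card]
  have hnormc : ∀ y : P, (y : G) ∈ Subgroup.center G → ‖ψ y‖ ^ 2 = ‖ψ 1‖ ^ 2 := by
    intro y hy
    have h1 := hcentral _ hy 1
    rw [mul_one] at h1
    rw [h1]
  have hd : (Nat.card ((Subgroup.center G).subgroupOf P) : ℝ) =
      ∑ y : P, (if (y : G) ∈ Subgroup.center G then (1 : ℝ) else 0) := by
    rw [Finset.sum_boole, Nat.card_eq_fintype_card, Fintype.card_subtype]
    simp only [Subgroup.mem_subgroupOf]
  set A : ℝ := ∑ y : P, (if (y : G) ∈ Subgroup.center G then (0 : ℝ) else ‖ψ y‖ ^ 2) with hA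
  set d : ℝ := ∑ y : P, (if (y : G) ∈ Subgroup.center G then (1 : ℝ) else 0) with hd'
  have h1 : ∑ y : P, ‖ψ y‖ ^ 2 = d * ‖ψ 1‖ ^ 2 + A := by
    rw [hd', hA, Finset.sum_mul, ← Finset.sum_add_distrib]
    refine Finset.sum_congr rfl (fun y _ => ?_)
    split_ifs with hy
    · rw [hnormc y hy]; ring
    · ring
  have h2 : (Nat.card K : ℝ) * (Nat.card P : ℝ) = (Nat.card K : ℝ) * (d + A) := by
    rw [← hcard, ← hG, hsum, hd', hA, ← Finset.sum_add_distrib, Finset.mul_sum]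
    refine Finset.sum_congr rfl (fun y _ => ?_)
    rw [hinner y]
    split_ifs with hy <;> ring
  have hK0 : (Nat.card K : ℝ) ≠ 0 := by exact_mod_cast Nat.card_pos.ne'
  have h3 : (Nat.card P : ℝ) = d + A := mul_left_cancel₀ hK0 h2
  rw [h1, hd, h3]
  ring

theorem arith_core (p m d e N : ℕ) (hp : p.Prime) (hd : 0 < d) (he : p ∣ e) (hm2 : 2 ≤ m)
    (hmp : m + 1 ≤ p) (h : d * m ^ 2 + d * e = N * (d * e) + d) : m + 1 = p := by
  have hd' : (d : ℤ) ≠ 0 := by exact_mod_cast hd.ne'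
  have h1 : ((m : ℤ) - 1) * ((m : ℤ) + 1) = ((N : ℤ) - 1) * e := by
    have h2 := congrArg (Nat.cast : ℕ → ℤ) h
    push_cast at h2
    apply mul_left_cancel₀ hd'
    linear_combination h2
  have hpe : (p : ℤ) ∣ ((m : ℤ) - 1) * ((m : ℤ) + 1) := by
    rw [h1]
    exact Dvd.dvd.mul_left (Int.natCast_dvd_natCast.mpr he) _
  rcases (Nat.prime_iff_prime_int.mp hp).dvd_or_dvd hpe with h3 | h3
  · exfalso
    have h4 : (p : ℤ) ∣ ((m - 1 : ℕ) : ℤ) := by
      rw [Nat.cast_sub (by omega)]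
      simpa using h3
    have h5 := Nat.le_of_dvd (by omega) (Int.natCast_dvd_natCast.mp h4)
    omega
  · have h4 : (p : ℤ) ∣ ((m + 1 : ℕ) : ℤ) := by
      push_cast
      exact h3
    have h5 := Nat.le_of_dvd (by omega) (Int.natCast_dvd_natCast.mp h4)
    omega

/-- The degree of `ψ` is `p - 1`. -/
theorem degree_succ_eq {G : Type u} [Group G] [Finite G] (p : ℕ) (hp : p.Prime) (P : Sylow p G)
    (K : Subgroup G) [K.Normal] (hPK : (P : Subgroup G) ⊓ K = ⊥)
    (htop : (P : Subgroup G) ⊔ K = ⊤) {ψ : G → ℂ} (hψ : IsIrrCharacter G ψ)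
    (hψK : IsIrrCharacter K (fun k : K => ψ k))
    (hconj : ∀ y ∈ (P : Subgroup G), y ∉ Subgroup.center G → ∀ a ∈ K,
      ∃ b : G, ∃ z ∈ Subgroup.center G, a * y = b * (z * y) * b⁻¹)
    (hnc : ∃ y ∈ (P : Subgroup G), y ∉ Subgroup.center G)
    (hm2 : 2 ≤ charDegree ψ) (hmp : charDegree ψ + 1 ≤ p) : charDegree ψ + 1 = p := by
  classical
  haveI : Fact p.Prime := ⟨hp⟩
  haveI : Fintype (P : Subgroup G) := Fintype.ofFinite _
  have hS := sum_norm_sq_compl (P : Subgroup G) K hPK htop hψ hψK hconj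
  have hψc := Helper80.isCharacter_of_isIrrCharacter hψ
  have hres : IsCharacter (P : Subgroup G) (fun y : (P : Subgroup G) => ψ y) :=
    Helper75.isCharacter_res _ hψc
  obtain ⟨N, hN⟩ := Helper75.classInner_char_nat hres hres
  unfold Cfsg.classInner at hN
  have hP0 : (Nat.card (P : Subgroup G) : ℂ) ≠ 0 := by exact_mod_cast Nat.card_pos.ne'
  have h3 : ∀ y : (P : Subgroup G), ψ y * conj (ψ y) = ((‖ψ y‖ ^ 2 : ℝ) : ℂ) := by
    intro y
    rw [Complex.mul_conj, Complex.normSq_eq_norm_sq]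
  simp_rw [h3] at hN
  have h4 : ∑ y : (P : Subgroup G), ‖ψ y‖ ^ 2 = (N : ℝ) * (Nat.card (P : Subgroup G) : ℝ) := by
    have h5 : ((∑ y : (P : Subgroup G), ‖ψ y‖ ^ 2 : ℝ) : ℂ) =
        (N : ℂ) * (Nat.card (P : Subgroup G) : ℂ) := by
      rw [Complex.ofReal_sum, ← hN]
      field_simp
    exact_mod_cast h5
  have hm : ‖ψ 1‖ = (charDegree ψ : ℝ) := by
    rw [Helper80.char_one_eq_charDegree hψc, Complex.norm_natCast]
  set D : Subgroup (P : Subgroup G) := (Subgroup.center G).subgroupOf (P : Subgroup G) with hD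
  have hDidx : Nat.card D * D.index = Nat.card (P : Subgroup G) := Subgroup.card_mul_index D
  have hpe : p ∣ D.index := by
    obtain ⟨n, hn⟩ := IsPGroup.iff_card.mp P.isPGroup'
    have h5 : D.index ∣ p ^ n := by rw [← hn, ← hDidx]; exact dvd_mul_left _ _
    obtain ⟨j, -, hj⟩ := (Nat.dvd_prime_pow hp).mp h5
    have hj0 : j ≠ 0 := by
      intro h0
      rw [h0, pow_zero, Subgroup.index_eq_one] at hj
      obtain ⟨y, hy, hyc⟩ := hnc
      apply hyc
      have h6 : (⟨y, hy⟩ : (P : Subgroup G)) ∈ D := by rw [hj]; exact Subgroup.mem_top _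
      exact Subgroup.mem_subgroupOf.mp h6
    rw [hj]
    exact dvd_pow_self p hj0
  rw [h4, hm, ← hDidx] at hS
  have hnat : Nat.card D * charDegree ψ ^ 2 + Nat.card D * D.index =
      N * (Nat.card D * D.index) + Nat.card D := by
    have h5 : (Nat.card D : ℝ) * (charDegree ψ : ℝ) ^ 2 + (Nat.card D : ℝ) * (D.index : ℝ) =
        (N : ℝ) * ((Nat.card D : ℝ) * (D.index : ℝ)) + (Nat.card D : ℝ) := by
      push_cast at hS
      linarith
    exact_mod_cast h5
  exact arith_core p (charDegree ψ) (Nat.card D) D.index N hp Nat.card_pos hpe hm2 hmp hnat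

end Cfsg.Agent.Lib.Helper96.Ito
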