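import Mathlib
import Cfsg.Prelude.Def_Local
import Cfsg.Prelude.Def_Solvable
import Cfsg.Agent.Lib.Helper69.PSolvable
import Cfsg.Agent.Lib.Helper63.HallHigman
import Cfsg.Agent.S0023

set_option autoImplicit false

/-!
# Minimal non-`p`-closed `p`-soluble groups with abelian Sylow `p`-subgroup (helper96)

Group-theoretic part of Ito's theorem on `p`-soluble linear groups of degree `≤ p - 1`.
-/

namespace Cfsg.Agent.Lib.Helper96.Ito

open Cfsg
open scoped commutatorElement

universe u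

/-- A finite-set pigeonhole: if `φ` takes values among those of `ι` and `ι` factors through
`φ`, then every value of `ι` is a value of `φ`. -/
theorem exists_eq_of_factor {α β : Type*} [Finite α] (φ ι : α → β)
    (h1 : ∀ a, ∃ a', φ a = ι a') (h2 : ∀ a a', φ a = φ a' → ι a = ι a') :
    ∀ a, ∃ a', φ a' = ι a := by
  classical
  have hs : ∀ c : Set.range ι, ∃ a, ι a = c := fun c => c.2
  choose s hs using hs
  have hF : ∀ c : Set.range ι, φ (s c) ∈ Set.range ι := fun c => by
    obtain ⟨a', ha'⟩ := h1 (s c)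
    exact ⟨a', ha'.symm⟩
  let F : Set.range ι → Set.range ι := fun c => ⟨φ (s c), hF c⟩
  have hinj : Function.Injective F := by
    intro c c' hcc
    have h3 : φ (s c) = φ (s c') := congrArg Subtype.val hcc
    have h4 := h2 _ _ h3
    rw [hs, hs] at h4
    exact Subtype.ext h4
  have hsurj := Finite.surjective_of_injective hinj
  intro a
  obtain ⟨c, hc⟩ := hsurj ⟨ι a, a, rfl⟩
  exact ⟨s c, congrArg Subtype.val hc⟩

/-- If `c = b g b⁻¹ g⁻¹` commutes with `g` and the orders of `g` and `c` are coprime then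
`c = 1`. -/
theorem comm_eq_one_of_coprime {G : Type*} [Group G] (b g : G) (n m : ℕ) (hg : g ^ n = 1)
    (hc : (b * g * b⁻¹ * g⁻¹) ^ m = 1) (hcomm : Commute (b * g * b⁻¹ * g⁻¹) g)
    (hnm : Nat.Coprime n m) : b * g * b⁻¹ * g⁻¹ = 1 := by
  set c := b * g * b⁻¹ * g⁻¹ with hcdef
  have h1 : c * g = b * g * b⁻¹ := by rw [hcdef]; group
  have h2 : (c * g) ^ n = 1 := by
    rw [h1, conj_pow, hg]; group
  rw [hcomm.mul_pow, hg, mul_one] at h2
  have h3 : orderOf c ∣ n := orderOf_dvd_of_pow_eq_one h2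
  have h4 : orderOf c ∣ m := orderOf_dvd_of_pow_eq_one hc
  have h5 : orderOf c = 1 := Nat.eq_one_of_dvd_coprimes hnm h3 h4
  exact orderOf_eq_one_iff.mp h5

/-- A nontrivial `q`-subgroup is not perfect. -/
theorem commutator_ne_self_of_isPGroup {G : Type*} [Group G] [Finite G] (q : ℕ) [Fact q.Prime]
    (K : Subgroup G) (hq : IsPGroup q K) (hK : K ≠ ⊥) : ⁅K, K⁆ ≠ K := by
  intro h
  haveI : Nontrivial K := (Subgroup.nontrivial_iff_ne_bot K).mpr hK
  haveI : Group.IsNilpotent K := hq.isNilpotent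
  have h1 := IsSolvable.commutator_lt_top_of_nontrivial K
  have h2 := Subgroup.map_subtype_commutator K
  rw [h] at h2
  have h3 : _root_.commutator K = ⊤ := by
    apply Subgroup.map_injective K.subtype_injective
    rw [h2, ← MonoidHom.range_eq_map, Subgroup.range_subtype]
  exact h1.ne h3

section

variable {G : Type u} [Group G] [Finite G] (p : ℕ) [Fact p.Prime] (P : Sylow p G)

theorem conj_mem_of_proper
    (hmin : ∀ H : Subgroup G, H ≠ ⊤ → ∀ S : Sylow p H, (S : Subgroup H).Normal)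
    (H : Subgroup G) (hH : H ≠ ⊤) (hPH : (P : Subgroup G) ≤ H) :
    ∀ t ∈ H, ∀ g ∈ (P : Subgroup G), t * g * t⁻¹ ∈ (P : Subgroup G) := by
  intro t ht g hg
  have hn := hmin H hH (P.subtype hPH)
  have h1 : (⟨g, hPH hg⟩ : H) ∈ ((P.subtype hPH : Sylow p H) : Subgroup H) := by
    rw [Sylow.coe_subtype, Subgroup.mem_subgroupOf]
    exact hg
  have h2 := hn.conj_mem _ h1 ⟨t, ht⟩
  rw [Sylow.coe_subtype, Subgroup.mem_subgroupOf] at h2
  exact h2

/-- In a minimal non-`p`-closed group, a proper `P`-invariant subgroup of a normal `p'`-subgroup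
is centralized by `P`. -/
theorem cent_of_proper
    (hmin : ∀ H : Subgroup G, H ≠ ⊤ → ∀ S : Sylow p H, (S : Subgroup H).Normal)
    (K : Subgroup G) [K.Normal] (hPK : (P : Subgroup G) ⊓ K = ⊥)
    (T : Subgroup G) (hTK : T ≤ K) (hne : T ≠ K)
    (hT : ∀ g ∈ (P : Subgroup G), ∀ t ∈ T, g * t * g⁻¹ ∈ T) :
    ∀ g ∈ (P : Subgroup G), ∀ t ∈ T, g * t = t * g := by
  have hnorm : (P : Subgroup G) ≤ Subgroup.normalizer (T : Set G) := by
    intro g hg
    rw [Subgroup.mem_normalizer_iff]
    intro h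
    constructor
    · intro hh; exact hT g hg h hh
    · intro hh
      have := hT g⁻¹ (Subgroup.inv_mem _ hg) _ hh
      simpa [mul_assoc] using this
  have hsup : (P : Subgroup G) ⊔ T ≠ ⊤ := by
    intro htop
    obtain ⟨k, hkK, hkT⟩ := SetLike.exists_of_lt (lt_of_le_of_ne hTK hne)
    have hk : k ∈ ((P : Subgroup G) ⊔ T : Subgroup G) := by rw [htop]; exact Subgroup.mem_top k
    rw [← SetLike.mem_coe, Subgroup.coe_mul_of_left_le_normalizer_right _ _ hnorm] at hk
    obtain ⟨a, ha, b, hb, hab⟩ := Set.mem_mul.mp hk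
    have haK : a ∈ K := by
      have : a = k * b⁻¹ := by rw [← hab]; group
      rw [this]
      exact K.mul_mem hkK (K.inv_mem (hTK hb))
    have ha1 : a = 1 := by
      have : a ∈ (P : Subgroup G) ⊓ K := ⟨ha, haK⟩
      rw [hPK] at this
      exact Subgroup.mem_bot.mp this
    apply hkT
    rw [← hab, ha1, one_mul]
    exact hb
  intro g hg t ht
  have h1 := conj_mem_of_proper p P hmin _ hsup le_sup_left t (Subgroup.mem_sup_right ht) g hg
  have h2 : t * g * t⁻¹ * g⁻¹ ∈ (P : Subgroup G) := Subgroup.mul_mem _ h1 (Subgroup.inv_mem _ hg)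
  have h3 : t * g * t⁻¹ * g⁻¹ ∈ K := by
    have : t * g * t⁻¹ * g⁻¹ = t * (g * t⁻¹ * g⁻¹) := by group
    rw [this]
    exact K.mul_mem (hTK ht) (hTK (hT g hg _ (T.inv_mem ht)))
  have h4 : t * g * t⁻¹ * g⁻¹ = 1 := by
    have : t * g * t⁻¹ * g⁻¹ ∈ (P : Subgroup G) ⊓ K := ⟨h2, h3⟩
    rw [hPK] at this
    exact Subgroup.mem_bot.mp this
  calc g * t = (t * g * t⁻¹ * g⁻¹)⁻¹ * (t * g) := by group
    _ = t * g := by rw [h4, inv_one, one_mul]

/-- `G = P O_{p'}(G)` for a minimal non-`p`-closed `p`-soluble group with abelian Sylow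
`p`-subgroup `P`. -/
theorem sup_pPrimeCore_eq_top
    (hmin : ∀ H : Subgroup G, H ≠ ⊤ → ∀ S : Sylow p H, (S : Subgroup H).Normal)
    (hP : ¬ (P : Subgroup G).Normal) (hsolv : IsPSolvable p G)
    (hab : ∀ a ∈ (P : Subgroup G), ∀ b ∈ (P : Subgroup G), a * b = b * a) :
    (P : Subgroup G) ⊔ pPrimeCore p G = ⊤ := by
  haveI : (pPrimeCore p G).Characteristic := Helper63.pPrimeCore_characteristic' p G
  haveI hKn : (pPrimeCore p G).Normal := Subgroup.normal_of_characteristic _
  set K := pPrimeCore p G with hK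
  let π := QuotientGroup.mk' K
  have hπ : Function.Surjective π := QuotientGroup.mk'_surjective K
  have h0 : pPrimeCore p (G ⧸ K) = ⊥ := Helper63.pPrimeCore_quotient_eq_bot p G
  have hl : ∃ k, PLengthLE p k (G ⧸ K) :=
    Helper63.exists_plengthLE_of_isPSolvable (Helper69.isPSolvable_of_surj p π hπ hsolv)
  have hC := Helper63.centralizer_pCore_le h0 hl
  have h1 : pCore p (G ⧸ K) ≤ (P : Subgroup G).map π := by
    have := Helper63.pCore_le_sylow' p (P.mapSurjective hπ)
    rwa [Sylow.coe_mapSurjective] at this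
  have h2 : (P : Subgroup G).map π ≤ Subgroup.centralizer (pCore p (G ⧸ K) : Set (G ⧸ K)) := by
    rintro x ⟨a, ha, rfl⟩
    rw [Subgroup.mem_centralizer_iff]
    intro y hy
    obtain ⟨b, hb, rfl⟩ := h1 hy
    rw [← map_mul, ← map_mul, hab b hb a ha]
  have h3 : (P : Subgroup G).map π = pCore p (G ⧸ K) := le_antisymm (h2.trans hC) h1
  haveI : (pCore p (G ⧸ K)).Characteristic := Helper63.pCore_characteristic' p (G ⧸ K)
  have hn1 : ((P : Subgroup G).map π).Normal := by
    rw [h3]; exact Subgroup.normal_of_characteristic _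
  have hn2 : ((P : Subgroup G) ⊔ K).Normal := by
    have : (((P : Subgroup G).map π).comap π).Normal := hn1.comap π
    rwa [Subgroup.comap_map_eq, QuotientGroup.ker_mk'] at this
  by_contra hne
  have hS := hmin _ hne (P.subtype le_sup_left)
  haveI := Sylow.characteristic_of_normal _ hS
  have hn3 := ConjAct.normal_of_characteristic_of_normal
    (H := (P : Subgroup G) ⊔ K)
    (K := ((P.subtype (le_sup_left : (P : Subgroup G) ≤ (P : Subgroup G) ⊔ K) : Sylow p _) :
      Subgroup _))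
  rw [Sylow.coe_subtype, Subgroup.map_subgroupOf_eq_of_le le_sup_left] at hn3
  exact hP hn3

/-- `O_{p'}(G)` is a `q`-group for a minimal non-`p`-closed `p`-soluble group with abelian
Sylow `p`-subgroup. -/
theorem pPrimeCore_isPGroup
    (hmin : ∀ H : Subgroup G, H ≠ ⊤ → ∀ S : Sylow p H, (S : Subgroup H).Normal)
    (hP : ¬ (P : Subgroup G).Normal) (hsolv : IsPSolvable p G)
    (hab : ∀ a ∈ (P : Subgroup G), ∀ b ∈ (P : Subgroup G), a * b = b * a) :
    ∃ q : ℕ, q.Prime ∧ IsPGroup q (pPrimeCore p G) := by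
  haveI : (pPrimeCore p G).Characteristic := Helper63.pPrimeCore_characteristic' p G
  haveI hKn : (pPrimeCore p G).Normal := Subgroup.normal_of_characteristic _
  have htop := sup_pPrimeCore_eq_top p P hmin hP hsolv hab
  have hcop := Helper63.card_pPrimeCore_coprime' p G
  set K := pPrimeCore p G with hK
  have hcopPK : (Nat.card (P : Subgroup G)).Coprime (Nat.card K) := by
    obtain ⟨n, hn⟩ := IsPGroup.iff_card.mp P.isPGroup'
    rw [hn]
    exact Nat.Coprime.pow_left n hcop.symm
  have hPK : (P : Subgroup G) ⊓ K = ⊥ := Subgroup.inf_eq_bot_of_coprime hcopPK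
  by_contra hall
  have hcent : K ≤ Subgroup.centralizer ((P : Subgroup G) : Set G) := by
    set C : Subgroup G := K ⊓ Subgroup.centralizer ((P : Subgroup G) : Set G) with hC
    have hCK : C.subgroupOf K = ⊤ := by
      by_contra hCne
      have hidx : (C.subgroupOf K).index ≠ 1 := fun h => hCne (Subgroup.index_eq_one.mp h)
      obtain ⟨q, hq, hqd⟩ := Nat.exists_prime_and_dvd hidx
      haveI : Fact q.Prime := ⟨hq⟩
      haveI : Group.IsNilpotent (P : Subgroup G) := P.isPGroup'.isNilpotent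
      have hPn : (P : Subgroup G) ≤ Subgroup.normalizer (K : Set G) := by
        rw [Subgroup.normalizer_eq_top_iff.mpr hKn]
        exact le_top
      obtain ⟨S, hS⟩ := Cfsg.Agent.S0023.result (P : Subgroup G) K hPn hcopPK
        (Or.inl inferInstance) q
      set T : Subgroup G := (S : Subgroup K).map K.subtype with hTdef
      have hTK : T ≤ K := Subgroup.map_subtype_le _
      have hTne : T ≠ K := by
        intro hTeq
        apply hall
        refine ⟨q, hq, ?_⟩
        have h1 : IsPGroup q T := S.isPGroup'.map K.subtype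
        rwa [hTeq] at h1
      have hTinv : ∀ g ∈ (P : Subgroup G), ∀ t ∈ T, g * t * g⁻¹ ∈ T := by
        intro g hg t ht
        exact (Subgroup.mem_normalizer_iff.mp (hS hg) t).mp ht
      have hTc := cent_of_proper p P hmin K hPK T hTK hTne hTinv
      have hSC : (S : Subgroup K) ≤ C.subgroupOf K := by
        intro s hs
        rw [Subgroup.mem_subgroupOf]
        have hsT : (s : G) ∈ T := ⟨s, hs, rfl⟩
        exact Subgroup.mem_inf.mpr ⟨s.2, Subgroup.mem_centralizer_iff.mpr
          (fun g hg => hTc g hg _ hsT)⟩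
      have h2 : (C.subgroupOf K).index ∣ (S : Subgroup K).index := Subgroup.index_dvd_of_le hSC
      exact S.not_dvd_index (hqd.trans h2)
    rw [Subgroup.subgroupOf_eq_top] at hCK
    exact hCK.trans inf_le_right
  apply hP
  rw [← Subgroup.normalizer_eq_top_iff, eq_top_iff, ← htop]
  exact sup_le Subgroup.le_normalizer (hcent.trans (Subgroup.centralizer_le_normalizer _))

/-- The standing hypotheses for the structure of a minimal non-`p`-closed group `G = PK`. -/
structure Setup (K : Subgroup G) : Prop where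
  normal : K.Normal
  hmin : ∀ H : Subgroup G, H ≠ ⊤ → ∀ S : Sylow p H, (S : Subgroup H).Normal
  notNormal : ¬ (P : Subgroup G).Normal
  hab : ∀ a ∈ (P : Subgroup G), ∀ b ∈ (P : Subgroup G), a * b = b * a
  htop : (P : Subgroup G) ⊔ K = ⊤
  hcop : (Nat.card (P : Subgroup G)).Coprime (Nat.card K)
  hder : ⁅K, K⁆ ≠ K
  hna : ∃ a ∈ K, ∃ b ∈ K, a * b ≠ b * a

variable {p P}
variable {K : Subgroup G}

theorem Setup.inf_eq_bot (h : Setup p P K) : (P : Subgroup G) ⊓ K = ⊥ :=
  Subgroup.inf_eq_bot_of_coprime h.hcop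

theorem Setup.mem_center (h : Setup p P K) {z : G}
    (h1 : ∀ g ∈ (P : Subgroup G), g * z = z * g) (h2 : ∀ k ∈ K, k * z = z * k) :
    z ∈ Subgroup.center G := by
  rw [Subgroup.mem_center_iff]
  intro g
  have hg : g ∈ (P : Subgroup G) ⊔ K := by rw [h.htop]; exact Subgroup.mem_top g
  have hle : (P : Subgroup G) ⊔ K ≤ Subgroup.centralizer ({z} : Set G) := by
    apply sup_le
    · intro x hx
      rw [Subgroup.mem_centralizer_singleton_iff]
      exact h1 x hx
    · intro x hx
      rw [Subgroup.mem_centralizer_singleton_iff]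
      exact h2 x hx
  have h3 := hle hg
  rw [Subgroup.mem_centralizer_singleton_iff] at h3
  exact h3

/-- `P` is not centralized by `K`. -/
theorem Setup.not_le_centralizer (h : Setup p P K) :
    ¬ K ≤ Subgroup.centralizer ((P : Subgroup G) : Set G) := by
  intro hcent
  apply h.notNormal
  rw [← Subgroup.normalizer_eq_top_iff, eq_top_iff, ← h.htop]
  exact sup_le Subgroup.le_normalizer (hcent.trans (Subgroup.centralizer_le_normalizer _))

/-- `Z(K) ≤ Z(G)`. -/
theorem Setup.center_K (h : Setup p P K) {z : G} (hz : z ∈ K) (hzc : ∀ a ∈ K, a * z = z * a) :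
    z ∈ Subgroup.center G := by
  haveI := h.normal
  set T : Subgroup G := K ⊓ Subgroup.centralizer (K : Set G) with hT
  have hTK : T ≤ K := inf_le_left
  have hTne : T ≠ K := by
    intro hTeq
    obtain ⟨a, ha, b, hb, hne⟩ := h.hna
    have hb' : b ∈ T := by rw [hTeq]; exact hb
    exact hne (Subgroup.mem_centralizer_iff.mp hb'.2 a ha)
  have hTinv : ∀ g ∈ (P : Subgroup G), ∀ t ∈ T, g * t * g⁻¹ ∈ T := by
    intro g _ t ht
    refine Subgroup.mem_inf.mpr ⟨h.normal.conj_mem t ht.1 g, ?_⟩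
    rw [Subgroup.mem_centralizer_iff]
    intro k hk
    have h1 := Subgroup.mem_centralizer_iff.mp ht.2 (g⁻¹ * k * g)
      (by simpa using h.normal.conj_mem k hk g⁻¹)
    calc k * (g * t * g⁻¹) = g * ((g⁻¹ * k * g) * t) * g⁻¹ := by group
      _ = g * (t * (g⁻¹ * k * g)) * g⁻¹ := by rw [h1]
      _ = g * t * g⁻¹ * k := by group
  have hTc := cent_of_proper p P h.hmin K h.inf_eq_bot T hTK hTne hTinv
  have hzT : z ∈ T := Subgroup.mem_inf.mpr ⟨hz, Subgroup.mem_centralizer_iff.mpr hzc⟩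
  exact h.mem_center (fun g hg => hTc g hg z hzT) hzc

/-- `[K, P] = K`. -/
theorem Setup.comm_eq (h : Setup p P K) : ⁅K, (P : Subgroup G)⁆ = K := by
  haveI := h.normal
  by_contra hne
  set T : Subgroup G := ⁅K, (P : Subgroup G)⁆ with hT
  have hTK : T ≤ K := Subgroup.commutator_le_left K _
  have hTinv : ∀ g ∈ (P : Subgroup G), ∀ t ∈ T, g * t * g⁻¹ ∈ T := by
    intro g hg t ht
    have hle : T ≤ T.comap (MulAut.conj g).toMonoidHom := by
      rw [hT, Subgroup.commutator_le]
      intro a ha b hb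
      rw [Subgroup.mem_comap]
      change (MulAut.conj g) ⁅a, b⁆ ∈ T
      rw [map_commutatorElement]
      apply Subgroup.commutator_mem_commutator
      · rw [MulAut.conj_apply]; exact h.normal.conj_mem a ha g
      · rw [MulAut.conj_apply]
        exact Subgroup.mul_mem _ (Subgroup.mul_mem _ hg hb) (Subgroup.inv_mem _ hg)
    have := hle ht
    rw [Subgroup.mem_comap] at this
    exact this
  have hTc := cent_of_proper p P h.hmin K h.inf_eq_bot T hTK hne hTinv
  apply h.not_le_centralizer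
  intro b hb
  rw [Subgroup.mem_centralizer_iff]
  intro g hg
  have hcT : b * g * b⁻¹ * g⁻¹ ∈ T := by
    have := Subgroup.commutator_mem_commutator hb hg
    rwa [commutatorElement_def] at this
  have hcomm : Commute (b * g * b⁻¹ * g⁻¹) g := (hTc g hg _ hcT).symm
  have hgn : g ^ Nat.card (P : Subgroup G) = 1 := by
    have := pow_card_eq_one' (G := (P : Subgroup G)) (x := ⟨g, hg⟩)
    exact congrArg Subtype.val this
  have hcm : (b * g * b⁻¹ * g⁻¹) ^ Nat.card K = 1 := by
    have := pow_card_eq_one' (G := K) (x := ⟨_, hTK hcT⟩)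
    exact congrArg Subtype.val this
  have h1 := comm_eq_one_of_coprime b g _ _ hgn hcm hcomm h.hcop
  calc g * b = (b * g * b⁻¹ * g⁻¹)⁻¹ * (b * g) := by group
    _ = b * g := by rw [h1, inv_one, one_mul]

/-- `C_K(P) ≤ Z(G)`. -/
theorem Setup.cent_le_center (h : Setup p P K) {c : G} (hc : c ∈ K)
    (hcP : ∀ g ∈ (P : Subgroup G), g * c = c * g) : c ∈ Subgroup.center G := by
  haveI := h.normal
  set C : Subgroup G := K ⊓ Subgroup.centralizer ((P : Subgroup G) : Set G) with hC
  -- `K' < K` is centralized by `P`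
  have hDinv : ∀ g ∈ (P : Subgroup G), ∀ t ∈ ⁅K, K⁆, g * t * g⁻¹ ∈ ⁅K, K⁆ := by
    intro g _ t ht
    haveI : (⁅K, K⁆ : Subgroup G).Normal := Subgroup.commutator_normal K K
    exact Subgroup.Normal.conj_mem inferInstance t ht g
  have hDc := cent_of_proper p P h.hmin K h.inf_eq_bot ⁅K, K⁆ (Subgroup.commutator_le_left K K)
    h.hder hDinv
  have h1 : ⁅⁅(P : Subgroup G), C⁆, K⁆ = ⊥ := by
    have : ⁅(P : Subgroup G), C⁆ = ⊥ := by
      rw [Subgroup.commutator_eq_bot_iff_le_centralizer]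
      intro g hg
      rw [Subgroup.mem_centralizer_iff]
      intro x hx
      exact (Subgroup.mem_centralizer_iff.mp hx.2 g hg).symm
    rw [this, Subgroup.commutator_bot_left]
  have h2 : ⁅⁅C, K⁆, (P : Subgroup G)⁆ = ⊥ := by
    rw [Subgroup.commutator_eq_bot_iff_le_centralizer]
    intro x hx
    have hx' : x ∈ ⁅K, K⁆ := Subgroup.commutator_mono inf_le_left le_rfl hx
    rw [Subgroup.mem_centralizer_iff]
    intro g hg
    exact hDc g hg x hx'
  have h3 := Subgroup.commutator_commutator_eq_bot_of_rotate h1 h2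
  rw [h.comm_eq, Subgroup.commutator_eq_bot_iff_le_centralizer] at h3
  have hcC : c ∈ C := Subgroup.mem_inf.mpr ⟨hc, Subgroup.mem_centralizer_iff.mpr hcP⟩
  refine h.mem_center hcP (fun k hk => ?_)
  exact (Subgroup.mem_centralizer_iff.mp (h3 hk) c hcC).symm

/-- For `y ∈ P` not central, an element of `K` whose commutator with `y` is central
is itself central. -/
theorem Setup.key_inj (h : Setup p P K) {y : G} (hy : y ∈ (P : Subgroup G))
    (hyc : y ∉ Subgroup.center G) {b : G} (hb : b ∈ K)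
    (hby : b * y * b⁻¹ * y⁻¹ ∈ Subgroup.center G) : b ∈ Subgroup.center G := by
  haveI := h.normal
  set T : Subgroup G := K ⊓ Subgroup.centralizer ({y} : Set G) with hT
  have hTK : T ≤ K := inf_le_left
  have hTne : T ≠ K := by
    intro hTeq
    apply hyc
    refine h.mem_center (fun g hg => h.hab g hg y hy) (fun k hk => ?_)
    have hk' : k ∈ T := by rw [hTeq]; exact hk
    exact Subgroup.mem_centralizer_singleton_iff.mp hk'.2
  have hTinv : ∀ g ∈ (P : Subgroup G), ∀ t ∈ T, g * t * g⁻¹ ∈ T := by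
    intro g hg t ht
    refine Subgroup.mem_inf.mpr ⟨h.normal.conj_mem t ht.1 g, ?_⟩
    rw [Subgroup.mem_centralizer_singleton_iff]
    have h1 : t * y = y * t := Subgroup.mem_centralizer_singleton_iff.mp ht.2
    have h2 : g * y = y * g := h.hab g hg y hy
    have h3 : g⁻¹ * y = y * g⁻¹ := by
      calc g⁻¹ * y = g⁻¹ * (y * g) * g⁻¹ := by group
        _ = g⁻¹ * (g * y) * g⁻¹ := by rw [h2]
        _ = y * g⁻¹ := by group
    symm
    calc y * (g * t * g⁻¹) = (y * g) * t * g⁻¹ := by group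
      _ = (g * y) * t * g⁻¹ := by rw [h2]
      _ = g * (y * t) * g⁻¹ := by group
      _ = g * (t * y) * g⁻¹ := by rw [h1]
      _ = g * t * (y * g⁻¹) := by group
      _ = g * t * (g⁻¹ * y) := by rw [h3]
      _ = g * t * g⁻¹ * y := by group
  have hTc := cent_of_proper p P h.hmin K h.inf_eq_bot T hTK hTne hTinv
  -- the commutator is trivial
  have hcK : b * y * b⁻¹ * y⁻¹ ∈ K := by
    have : b * y * b⁻¹ * y⁻¹ = b * (y * b⁻¹ * y⁻¹) := by group
    rw [this]
    exact K.mul_mem hb (h.normal.conj_mem _ (K.inv_mem hb) y)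
  have hcomm : Commute (b * y * b⁻¹ * y⁻¹) y := (Subgroup.mem_center_iff.mp hby y).symm
  have hyn : y ^ Nat.card (P : Subgroup G) = 1 := by
    have := pow_card_eq_one' (G := (P : Subgroup G)) (x := ⟨y, hy⟩)
    exact congrArg Subtype.val this
  have hcm : (b * y * b⁻¹ * y⁻¹) ^ Nat.card K = 1 := by
    have := pow_card_eq_one' (G := K) (x := ⟨_, hcK⟩)
    exact congrArg Subtype.val this
  have h1 := comm_eq_one_of_coprime b y _ _ hyn hcm hcomm h.hcop
  have hyb : y * b = b * y := by
    calc y * b = (b * y * b⁻¹ * y⁻¹)⁻¹ * (b * y) := by group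
      _ = b * y := by rw [h1, inv_one, one_mul]
  have hbT : b ∈ T := Subgroup.mem_inf.mpr ⟨hb, Subgroup.mem_centralizer_singleton_iff.mpr hyb.symm⟩
  exact h.cent_le_center hb (fun g hg => hTc g hg b hbT)

/-- Some element of `P` is not central. -/
theorem Setup.exists_noncentral (h : Setup p P K) :
    ∃ y ∈ (P : Subgroup G), y ∉ Subgroup.center G := by
  by_contra hcon
  push Not at hcon
  apply h.not_le_centralizer
  intro k _
  rw [Subgroup.mem_centralizer_iff]
  intro g hg
  exact (Subgroup.mem_center_iff.mp (hcon g hg) k).symm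

/-- For `y ∈ P` not central, every element of the coset `K y` is conjugate to `z y` for a
central `z`. -/
theorem Setup.exists_conj (h : Setup p P K) {y : G} (hy : y ∈ (P : Subgroup G))
    (hyc : y ∉ Subgroup.center G) {a : G} (ha : a ∈ K) :
    ∃ b : G, ∃ z ∈ Subgroup.center G, a * y = b * (z * y) * b⁻¹ := by
  haveI := h.normal
  let π := QuotientGroup.mk' (Subgroup.center G)
  have hmemK : ∀ b : K, (b : G) * y * (b : G)⁻¹ * y⁻¹ ∈ K := by
    intro b
    have : (b : G) * y * (b : G)⁻¹ * y⁻¹ = (b : G) * (y * (b : G)⁻¹ * y⁻¹) := by group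
    rw [this]
    exact K.mul_mem b.2 (h.normal.conj_mem _ (K.inv_mem b.2) y)
  have key := exists_eq_of_factor (α := K)
    (fun b : K => π ((b : G) * y * (b : G)⁻¹ * y⁻¹)) (fun b : K => π (b : G))
    (fun b => ⟨⟨_, hmemK b⟩, rfl⟩) ?_ ⟨a, ha⟩
  · obtain ⟨b, hb⟩ := key
    have hz : a⁻¹ * ((b : G) * y * (b : G)⁻¹ * y⁻¹) ∈ Subgroup.center G :=
      QuotientGroup.eq.mp hb.symm
    set z' := a⁻¹ * ((b : G) * y * (b : G)⁻¹ * y⁻¹) with hz'
    refine ⟨b, z'⁻¹, Subgroup.inv_mem _ hz, ?_⟩
    have hzc : ∀ g : G, g * z'⁻¹ = z'⁻¹ * g :=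
      Subgroup.mem_center_iff.mp (Subgroup.inv_mem _ hz)
    have e1 : (b : G) * y * (b : G)⁻¹ = a * z' * y := by rw [hz']; group
    calc a * y = (a * z'⁻¹) * z' * y := by group
      _ = z'⁻¹ * (a * z' * y) := by rw [hzc a]; group
      _ = z'⁻¹ * ((b : G) * y * (b : G)⁻¹) := by rw [e1]
      _ = (z'⁻¹ * (b : G)) * y * (b : G)⁻¹ := by group
      _ = ((b : G) * z'⁻¹) * y * (b : G)⁻¹ := by rw [hzc (b : G)]
      _ = (b : G) * (z'⁻¹ * y) * (b : G)⁻¹ := by group
  · intro b b' hbb
    have hz : ((b : G) * y * (b : G)⁻¹ * y⁻¹)⁻¹ * ((b' : G) * y * (b' : G)⁻¹ * y⁻¹) ∈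
        Subgroup.center G := QuotientGroup.eq.mp hbb
    have hd : (b : G)⁻¹ * (b' : G) ∈ Subgroup.center G := by
      apply h.key_inj hy hyc (K.mul_mem (K.inv_mem b.2) b'.2)
      have hconj := (inferInstance : (Subgroup.center G).Normal).conj_mem _ hz
        (y * (b : G)⁻¹ * y⁻¹)
      have e : (b : G)⁻¹ * (b' : G) * y * ((b : G)⁻¹ * (b' : G))⁻¹ * y⁻¹ =
          (y * (b : G)⁻¹ * y⁻¹) *
            (((b : G) * y * (b : G)⁻¹ * y⁻¹)⁻¹ * ((b' : G) * y * (b' : G)⁻¹ * y⁻¹)) *
            (y * (b : G)⁻¹ * y⁻¹)⁻¹ := by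
        group
      rw [e]
      exact hconj
    exact QuotientGroup.eq.mpr hd

end

end Cfsg.Agent.Lib.Helper96.Ito
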