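import Mathlib

/-!
# Trigonometric sums for the Feit–Higman project (S1142, work package B3)

Pure real-analysis lemmas: finite sums of `cos`/`sin` along arithmetic progressions.
-/

set_option autoImplicit false

namespace Cfsg.Agent.Lib.Helper96.FHTrig

open Finset Real

/-- `2 sin θ cos x = sin (x + θ) - sin (x - θ)` -/
theorem two_sin_mul_cos (θ x : ℝ) : 2 * sin θ * cos x = sin (x + θ) - sin (x - θ) := by
  rw [sin_add, sin_sub]; ring

/-- telescoping closed form: `2 sin θ ∑_{k<M} cos (2kθ) = sin ((2M-1)θ) + sin θ` -/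
theorem two_sin_mul_sum_cos_two_mul (θ : ℝ) (M : ℕ) :
    2 * sin θ * ∑ k ∈ range M, cos (2 * k * θ) = sin ((2 * M - 1) * θ) + sin θ := by
  induction M with
  | zero =>
    simp only [range_zero, sum_empty, mul_zero, Nat.cast_zero, zero_sub, neg_one_mul, sin_neg]
    ring
  | succ n ih =>
    rw [sum_range_succ, mul_add, ih, two_sin_mul_cos]
    have h1 : 2 * (n : ℝ) * θ + θ = (2 * ((n + 1 : ℕ) : ℝ) - 1) * θ := by push_cast; ring
    have h2 : 2 * (n : ℝ) * θ - θ = (2 * (n : ℝ) - 1) * θ := by ring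
    rw [h1, h2]; ring

/-- telescoping closed form: `2 sin θ ∑_{k<M} cos ((2k+1)θ) = sin (2Mθ)` -/
theorem two_sin_mul_sum_cos_odd (θ : ℝ) (M : ℕ) :
    2 * sin θ * ∑ k ∈ range M, cos ((2 * k + 1) * θ) = sin (2 * M * θ) := by
  induction M with
  | zero => simp
  | succ n ih =>
    rw [sum_range_succ, mul_add, ih, two_sin_mul_cos]
    have h1 : (2 * (n : ℝ) + 1) * θ + θ = 2 * ((n + 1 : ℕ) : ℝ) * θ := by push_cast; ring
    have h2 : (2 * (n : ℝ) + 1) * θ - θ = 2 * (n : ℝ) * θ := by ring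
    rw [h1, h2]; ring

/-- telescoping closed form: `2 sin θ ∑_{k<h} cos (2(k+1)θ) = sin ((2h+1)θ) - sin θ` -/
theorem two_sin_mul_sum_cos_two_mul_succ (θ : ℝ) (h : ℕ) :
    2 * sin θ * ∑ k ∈ range h, cos (2 * (k + 1) * θ) = sin ((2 * h + 1) * θ) - sin θ := by
  induction h with
  | zero => simp
  | succ n ih =>
    rw [sum_range_succ, mul_add, ih, two_sin_mul_cos]
    have h1 : 2 * ((n : ℝ) + 1) * θ + θ = (2 * ((n + 1 : ℕ) : ℝ) + 1) * θ := by push_cast; ring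
    have h2 : 2 * ((n : ℝ) + 1) * θ - θ = (2 * (n : ℝ) + 1) * θ := by ring
    rw [h1, h2]; ring

section even

variable {θ : ℝ} {M : ℕ}

/-- if `sin (Mθ) = 0` then `sin (2Mθ) = 0` -/
theorem sin_two_mul_eq_zero (hM : sin (M * θ) = 0) : sin (2 * M * θ) = 0 := by
  have : 2 * (M : ℝ) * θ = 2 * (M * θ) := by ring
  rw [this, sin_two_mul, hM]; ring

/-- if `sin (Mθ) = 0` then `cos (2Mθ) = 1` -/
theorem cos_two_mul_eq_one (hM : sin (M * θ) = 0) : cos (2 * M * θ) = 1 := by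
  have : 2 * (M : ℝ) * θ = 2 * (M * θ) := by ring
  rw [this, cos_two_mul']
  have h1 := sin_sq_add_cos_sq ((M : ℝ) * θ)
  rw [hM] at h1 ⊢
  nlinarith

theorem sum_cos_two_mul (hs : sin θ ≠ 0) (hM : sin (M * θ) = 0) :
    ∑ k ∈ range M, cos (2 * k * θ) = 0 := by
  have h := two_sin_mul_sum_cos_two_mul θ M
  have h1 : sin ((2 * (M : ℝ) - 1) * θ) = - sin θ := by
    have : (2 * (M : ℝ) - 1) * θ = 2 * M * θ - θ := by ring
    rw [this, sin_sub, sin_two_mul_eq_zero hM, cos_two_mul_eq_one hM]; ring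
  rw [h1] at h
  have h2 : 2 * sin θ * ∑ k ∈ range M, cos (2 * k * θ) = 0 := by rw [h]; ring
  rcases mul_eq_zero.mp h2 with h3 | h3
  · exact absurd (by linarith : sin θ = 0) hs
  · exact h3

theorem sum_cos_odd (hs : sin θ ≠ 0) (hM : sin (M * θ) = 0) :
    ∑ k ∈ range M, cos ((2 * k + 1) * θ) = 0 := by
  have h := two_sin_mul_sum_cos_odd θ M
  rw [sin_two_mul_eq_zero hM] at h
  rcases mul_eq_zero.mp h with h3 | h3
  · exact absurd (by linarith : sin θ = 0) hs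
  · exact h3

theorem sum_cos_sq (hs : sin θ ≠ 0) (hM : sin (M * θ) = 0) :
    ∑ k ∈ range M, cos (k * θ) ^ 2 = M / 2 := by
  have h : ∀ k : ℕ, cos (k * θ) ^ 2 = 1 / 2 + cos (2 * k * θ) / 2 := by
    intro k
    have : 2 * (k : ℝ) * θ = 2 * (k * θ) := by ring
    rw [this, cos_sq]
  simp only [h, sum_add_distrib, ← sum_div, sum_cos_two_mul hs hM, sum_const, card_range,
    nsmul_eq_mul]
  ring

theorem sum_sin_sq (hs : sin θ ≠ 0) (hM : sin (M * θ) = 0) :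
    ∑ k ∈ range M, sin (k * θ) ^ 2 = M / 2 := by
  have h : ∀ k : ℕ, sin (k * θ) ^ 2 = 1 - cos (k * θ) ^ 2 := by
    intro k
    have := sin_sq_add_cos_sq ((k : ℝ) * θ)
    linarith
  simp only [h, sum_sub_distrib, sum_cos_sq hs hM, sum_const, card_range, nsmul_eq_mul]
  ring

theorem sum_sin_sq_succ (hs : sin θ ≠ 0) (hM : sin (M * θ) = 0) :
    ∑ k ∈ range M, sin (((k : ℝ) + 1) * θ) ^ 2 = M / 2 := by
  have h1 : ∑ k ∈ range (M + 1), sin ((k : ℝ) * θ) ^ 2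
      = ∑ k ∈ range M, sin ((((k + 1 : ℕ) : ℝ)) * θ) ^ 2 + sin (((0 : ℕ) : ℝ) * θ) ^ 2 :=
    sum_range_succ' _ M
  rw [sum_range_succ, sum_sin_sq hs hM, hM] at h1
  simp only [Nat.cast_zero, zero_mul, sin_zero] at h1
  have h2 : ∑ k ∈ range M, sin (((k : ℝ) + 1) * θ) ^ 2
      = ∑ k ∈ range M, sin ((((k + 1 : ℕ) : ℝ)) * θ) ^ 2 := by
    apply sum_congr rfl; intro k _; push_cast; ring_nf
  rw [h2]; linarith

theorem sum_sin_mul_sin_succ (hs : sin θ ≠ 0) (hM : sin (M * θ) = 0) :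
    ∑ k ∈ range M, sin (k * θ) * sin (((k : ℝ) + 1) * θ) = M / 2 * cos θ := by
  have h : ∀ k : ℕ, sin (k * θ) * sin (((k : ℝ) + 1) * θ)
      = cos θ / 2 - cos ((2 * k + 1) * θ) / 2 := by
    intro k
    have e1 : θ = ((k : ℝ) + 1) * θ - k * θ := by ring
    have e2 : (2 * (k : ℝ) + 1) * θ = ((k : ℝ) + 1) * θ + k * θ := by ring
    rw [e2, cos_add]
    nth_rewrite 3 [e1]
    rw [cos_sub]; ring
  simp only [h, sum_sub_distrib, ← sum_div, sum_cos_odd hs hM, sum_const, card_range,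
    nsmul_eq_mul]
  ring

end even

section odd

variable {θ : ℝ} {h : ℕ}

theorem sum_cos_two_mul_succ_odd (hs : sin θ ≠ 0) (hsin : sin ((2 * h + 1) * θ) = 0) :
    ∑ k ∈ range h, cos (2 * (k + 1) * θ) = -1 / 2 := by
  have h0 := two_sin_mul_sum_cos_two_mul_succ θ h
  rw [hsin] at h0
  have h1 : sin θ * (2 * ∑ k ∈ range h, cos (2 * (k + 1) * θ) + 1) = 0 := by linarith
  rcases mul_eq_zero.mp h1 with h3 | h3
  · exact absurd h3 hs
  · linarith

theorem sum_cos_odd_odd (hs : sin θ ≠ 0) (hsin : sin ((2 * h + 1) * θ) = 0)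
    (hcos : cos ((2 * h + 1) * θ) = 1) :
    ∑ k ∈ range h, cos ((2 * k + 1) * θ) = -1 / 2 := by
  have h0 := two_sin_mul_sum_cos_odd θ h
  have h2 : sin (2 * h * θ) = - sin θ := by
    have : 2 * (h : ℝ) * θ = (2 * h + 1) * θ - θ := by ring
    rw [this, sin_sub, hsin, hcos]; ring
  rw [h2] at h0
  have h1 : sin θ * (2 * ∑ k ∈ range h, cos ((2 * k + 1) * θ) + 1) = 0 := by linarith
  rcases mul_eq_zero.mp h1 with h3 | h3
  · exact absurd h3 hs
  · linarith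

theorem sum_sin_sq_half_odd (hs : sin θ ≠ 0) (hsin : sin ((2 * h + 1) * θ) = 0)
    (hcos : cos ((2 * h + 1) * θ) = 1) :
    ∑ k ∈ range h, sin ((2 * k + 1) * θ / 2) ^ 2 = (2 * h + 1) / 4 := by
  have hk : ∀ k : ℕ, sin ((2 * k + 1) * θ / 2) ^ 2 = 1 / 2 - cos ((2 * k + 1) * θ) / 2 := by
    intro k
    have hc : cos ((2 * (k : ℝ) + 1) * θ) = 1 - 2 * sin ((2 * k + 1) * θ / 2) ^ 2 := by
      have e : (2 * (k : ℝ) + 1) * θ = 2 * ((2 * k + 1) * θ / 2) := by ring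
      conv_lhs => rw [e]
      rw [cos_two_mul']
      have := sin_sq_add_cos_sq ((2 * (k : ℝ) + 1) * θ / 2)
      linarith
    rw [hc]; ring
  simp only [hk, sum_sub_distrib, ← sum_div, sum_cos_odd_odd hs hsin hcos, sum_const, card_range,
    nsmul_eq_mul]
  ring

/-- `sin (kθ) + sin ((k+1)θ) = 2 sin ((2k+1)θ/2) cos (θ/2)` -/
theorem sin_add_sin_succ (θ : ℝ) (k : ℕ) :
    sin (k * θ) + sin (((k : ℝ) + 1) * θ) = 2 * sin ((2 * k + 1) * θ / 2) * cos (θ / 2) := by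
  have e1 : (k : ℝ) * θ = (2 * k + 1) * θ / 2 - θ / 2 := by ring
  have e2 : ((k : ℝ) + 1) * θ = (2 * k + 1) * θ / 2 + θ / 2 := by ring
  rw [e1, e2, sin_sub, sin_add]; ring

end odd

/-! ### the two specializations used in B3 -/

/-- `θ = π j / M` with `0 < j < M` -/
theorem sin_ne_zero_even {M j : ℕ} (hj : 0 < j) (hjM : j < M) :
    sin (π * j / M) ≠ 0 := by
  have hM : (0 : ℝ) < M := by exact_mod_cast (lt_of_le_of_lt (Nat.zero_le j) hjM)
  have hj' : (0 : ℝ) < j := by exact_mod_cast hj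
  have hjM' : (j : ℝ) < M := by exact_mod_cast hjM
  apply ne_of_gt
  apply sin_pos_of_pos_of_lt_pi
  · positivity
  · rw [div_lt_iff₀ hM]
    exact mul_lt_mul_of_pos_left hjM' pi_pos

theorem sin_mul_eq_zero_even {M j : ℕ} (hM : 0 < M) :
    sin ((M : ℝ) * (π * j / M)) = 0 := by
  have hM' : (M : ℝ) ≠ 0 := by exact_mod_cast hM.ne'
  have : (M : ℝ) * (π * j / M) = j * π := by field_simp
  rw [this]
  exact sin_nat_mul_pi j

/-- `θ = 2 π j / (2h+1)` with `0 < j`, `2 j < 2 h + 1` -/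
theorem sin_ne_zero_odd {h j : ℕ} (hj : 0 < j) (hjh : 2 * j < 2 * h + 1) :
    sin (2 * π * j / (2 * h + 1)) ≠ 0 := by
  have hm : (0 : ℝ) < 2 * h + 1 := by positivity
  have hj' : (0 : ℝ) < j := by exact_mod_cast hj
  have hjh' : (2 * (j : ℝ)) < 2 * h + 1 := by exact_mod_cast hjh
  apply ne_of_gt
  apply sin_pos_of_pos_of_lt_pi
  · positivity
  · rw [div_lt_iff₀ hm]
    nlinarith [pi_pos]

theorem sin_mul_eq_zero_odd (h j : ℕ) :
    sin ((2 * (h : ℝ) + 1) * (2 * π * j / (2 * h + 1))) = 0 := by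
  have hm : (2 * (h : ℝ) + 1) ≠ 0 := by positivity
  have : (2 * (h : ℝ) + 1) * (2 * π * j / (2 * h + 1)) = ((2 * j : ℕ) : ℝ) * π := by
    push_cast; field_simp
  rw [this]
  exact sin_nat_mul_pi _

theorem cos_mul_eq_one_odd (h j : ℕ) :
    cos ((2 * (h : ℝ) + 1) * (2 * π * j / (2 * h + 1))) = 1 := by
  have hm : (2 * (h : ℝ) + 1) ≠ 0 := by positivity
  have : (2 * (h : ℝ) + 1) * (2 * π * j / (2 * h + 1)) = (j : ℝ) * (2 * π) := by
    field_simp
  rw [this]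
  exact cos_nat_mul_two_pi j

end Cfsg.Agent.Lib.Helper96.FHTrig
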