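import Cfsg.Agent.Lib.Lead.FH.Defs
import Cfsg.Agent.Lib.Lead.FH.Wt
import Cfsg.Agent.Lib.Helper96.FHTrig

/-!
# Feit–Higman (S1142), work package B3: the closed form `Ssum_R`
-/

set_option autoImplicit false

namespace Cfsg.Agent.Lib.Lead.FH

open Matrix Finset Real

/-! ### alternating words in a monoid -/

theorem b3_mul_pow_comm {M : Type*} [Monoid M] (x y : M) (i : ℕ) :
    x * (y * x) ^ i = (x * y) ^ i * x := by
  induction i with
  | zero => simp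
  | succ n ih => rw [pow_succ, ← mul_assoc, ih, pow_succ]; simp only [mul_assoc]

theorem b3_alt_two_mul {M : Type*} [Monoid M] (x y : M) (i : ℕ) :
    alt x y (2 * i) = (x * y) ^ i := by
  induction i with
  | zero => rw [pow_zero]; rfl
  | succ n ih =>
    have : 2 * (n + 1) = (2 * n + 1) + 1 := by ring
    rw [this]
    show x * (y * alt x y (2 * n)) = _
    rw [ih, ← mul_assoc, ← pow_succ']

theorem b3_alt_two_mul_succ {M : Type*} [Monoid M] (x y : M) (i : ℕ) :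
    alt x y (2 * i + 1) = (x * y) ^ i * x := by
  show x * alt y x (2 * i) = _
  rw [b3_alt_two_mul, b3_mul_pow_comm]

/-! ### `2 × 2` matrices: Cayley–Hamilton and trace recurrences -/

theorem b3_cayley (N : Matrix (Fin 2) (Fin 2) ℝ) :
    N * N = N.trace • N - N.det • (1 : Matrix (Fin 2) (Fin 2) ℝ) := by
  ext i j
  fin_cases i <;> fin_cases j <;>
    simp [Matrix.mul_apply, Fin.sum_univ_two, Matrix.trace, Matrix.det_fin_two] <;> ring

theorem b3_trace_rec (N Y : Matrix (Fin 2) (Fin 2) ℝ) (i : ℕ) :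
    (N ^ (i + 2) * Y).trace = N.trace * (N ^ (i + 1) * Y).trace - N.det * (N ^ i * Y).trace := by
  have h : N ^ (i + 2) = N.trace • N ^ (i + 1) - N.det • N ^ i := by
    rw [pow_succ, pow_succ, mul_assoc, b3_cayley, mul_sub, mul_smul_comm, mul_smul_comm, mul_one,
      ← pow_succ]
  rw [h, sub_mul, smul_mul_assoc, smul_mul_assoc, trace_sub, trace_smul, trace_smul]
  simp [smul_eq_mul]

/-! ### closed forms for sequences with `y (i+2) = 2ρ cos θ · y (i+1) - ρ² · y i` -/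

theorem b3_closed_cos (ρ θ : ℝ) (y : ℕ → ℝ)
    (hrec : ∀ i, y (i + 2) = 2 * ρ * cos θ * y (i + 1) - ρ ^ 2 * y i)
    (h0 : y 0 = 2) (h1 : y 1 = 2 * ρ * cos θ) :
    ∀ i : ℕ, y i = 2 * ρ ^ i * cos (i * θ) := by
  have key : ∀ i : ℕ, y i = 2 * ρ ^ i * cos (i * θ) ∧ y (i + 1) = 2 * ρ ^ (i + 1) * cos ((i + 1 : ℕ) * θ) := by
    intro i
    induction i with
    | zero => simp [h0, h1]
    | succ n ih =>
      refine ⟨ih.2, ?_⟩
      rw [hrec n, ih.1, ih.2]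
      have e1 : ((n + 1 + 1 : ℕ) : ℝ) * θ = ((n + 1 : ℕ) : ℝ) * θ + θ := by push_cast; ring
      have e2 : (n : ℝ) * θ = ((n + 1 : ℕ) : ℝ) * θ - θ := by push_cast; ring
      rw [e1, e2, cos_add, cos_sub]
      ring
  exact fun i => (key i).1

theorem b3_closed_sin (ρ θ P Q : ℝ) (y : ℕ → ℝ)
    (hrec : ∀ i, y (i + 2) = 2 * ρ * cos θ * y (i + 1) - ρ ^ 2 * y i)
    (h0 : y 0 = Q) (h1 : y 1 = P + 2 * ρ * cos θ * Q) :
    ∀ i : ℕ, ρ * sin θ * y i = ρ ^ i * (P * sin (i * θ) + ρ * Q * sin (((i : ℝ) + 1) * θ)) := by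
  have key : ∀ i : ℕ,
      ρ * sin θ * y i = ρ ^ i * (P * sin (i * θ) + ρ * Q * sin (((i : ℝ) + 1) * θ)) ∧
      ρ * sin θ * y (i + 1) = ρ ^ (i + 1) * (P * sin (((i : ℝ) + 1) * θ)
        + ρ * Q * sin (((i : ℝ) + 2) * θ)) := by
    intro i
    induction i with
    | zero =>
      constructor
      · simp [h0]; ring
      · simp only [h1, Nat.cast_zero, zero_add, one_mul, pow_one]
        rw [show (2 : ℝ) * θ = 2 * θ from rfl, sin_two_mul]; ring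
    | succ n ih =>
      refine ⟨by simpa [add_assoc, one_add_one_eq_two] using ih.2, ?_⟩
      have hr := hrec n
      have e : ρ * sin θ * y (n + 1 + 1) = 2 * ρ * cos θ * (ρ * sin θ * y (n + 1))
          - ρ ^ 2 * (ρ * sin θ * y n) := by rw [hr]; ring
      rw [e, ih.1, ih.2]
      have e1 : (((n + 1 : ℕ) : ℝ) + 1) * θ = ((n : ℝ) + 1) * θ + θ := by push_cast; ring
      have e2 : (((n + 1 : ℕ) : ℝ) + 2) * θ = ((n : ℝ) + 2) * θ + θ := by push_cast; ring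
      have e3 : (n : ℝ) * θ = ((n : ℝ) + 1) * θ - θ := by ring
      have e4 : ((n : ℝ) + 1) * θ = ((n : ℝ) + 2) * θ - θ := by ring
      have h5 : sin (((n : ℝ) + 1) * θ) = sin (((n : ℝ) + 2) * θ) * cos θ
          - cos (((n : ℝ) + 2) * θ) * sin θ := by
        conv_lhs => rw [e4]
        rw [sin_sub]
      rw [e1, e2, sin_add, sin_add, e3, sin_sub]
      linear_combination (-(ρ ^ (n + 3) * Q)) * h5
  exact fun i => (key i).1

/-! ### the explicit representation -/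

section spec

variable (a c v : ℝ)

theorem b3_trace_RA : (RA a).trace = a - 1 := by
  show (!![-1, 0; 1, a] : Matrix (Fin 2) (Fin 2) ℝ).trace = a - 1
  simp [Matrix.trace, Fin.sum_univ_two]; ring

theorem b3_trace_RC : (RC c v).trace = c - 1 := by
  show (!![c, v; 0, -1] : Matrix (Fin 2) (Fin 2) ℝ).trace = c - 1
  simp [Matrix.trace, Fin.sum_univ_two]; ring

theorem b3_trace_AC : (RA a * RC c v).trace = v - a - c := by
  show ((!![-1, 0; 1, a] : Matrix (Fin 2) (Fin 2) ℝ) * !![c, v; 0, -1]).trace = v - a - c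
  simp [Matrix.trace, Fin.sum_univ_two]; ring

theorem b3_det_AC : (RA a * RC c v).det = a * c := by
  show ((!![-1, 0; 1, a] : Matrix (Fin 2) (Fin 2) ℝ) * !![c, v; 0, -1]).det = a * c
  simp [Matrix.det_fin_two]; ring

theorem b3_trace_CA : (RC c v * RA a).trace = v - a - c := by
  rw [Matrix.trace_mul_comm, b3_trace_AC]

theorem b3_det_CA : (RC c v * RA a).det = a * c := by
  rw [Matrix.det_mul, mul_comm, ← Matrix.det_mul, b3_det_AC]

theorem b3_trace_ACA : (RA a * RC c v * RA a).trace = a * (c - 1) + (a - 1) * (v - a - c) := by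
  show ((!![-1, 0; 1, a] : Matrix (Fin 2) (Fin 2) ℝ) * !![c, v; 0, -1] * !![-1, 0; 1, a]).trace
    = a * (c - 1) + (a - 1) * (v - a - c)
  simp [Matrix.trace, Fin.sum_univ_two]; ring

theorem b3_trace_CAC : (RC c v * RA a * RC c v).trace = c * (a - 1) + (c - 1) * (v - a - c) := by
  show ((!![c, v; 0, -1] : Matrix (Fin 2) (Fin 2) ℝ) * !![-1, 0; 1, a] * !![c, v; 0, -1]).trace
    = c * (a - 1) + (c - 1) * (v - a - c)
  simp [Matrix.trace, Fin.sum_univ_two]; ring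

variable {a c v} {ρ θ : ℝ}

theorem b3_T (hx : v - a - c = 2 * ρ * cos θ) (hρ : ρ ^ 2 = a * c) (i : ℕ) :
    ((RA a * RC c v) ^ i).trace = 2 * ρ ^ i * cos (i * θ) := by
  refine b3_closed_cos ρ θ (fun i => ((RA a * RC c v) ^ i).trace) ?_ ?_ ?_ i
  · intro i
    have h := b3_trace_rec (RA a * RC c v) 1 i
    simp only [mul_one] at h
    rw [b3_trace_AC, b3_det_AC, hx, ← hρ] at h
    exact h
  · simp
  · simp only [pow_one]; rw [b3_trace_AC, hx]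

theorem b3_T' (hx : v - a - c = 2 * ρ * cos θ) (hρ : ρ ^ 2 = a * c) (i : ℕ) :
    ((RC c v * RA a) ^ i).trace = 2 * ρ ^ i * cos (i * θ) := by
  refine b3_closed_cos ρ θ (fun i => ((RC c v * RA a) ^ i).trace) ?_ ?_ ?_ i
  · intro i
    have h := b3_trace_rec (RC c v * RA a) 1 i
    simp only [mul_one] at h
    rw [b3_trace_CA, b3_det_CA, hx, ← hρ] at h
    exact h
  · simp
  · simp only [pow_one]; rw [b3_trace_CA, hx]

theorem b3_alpha (hx : v - a - c = 2 * ρ * cos θ) (hρ : ρ ^ 2 = a * c) (i : ℕ) :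
    ρ * sin θ * ((RA a * RC c v) ^ i * RA a).trace
      = ρ ^ i * (a * (c - 1) * sin (i * θ) + ρ * (a - 1) * sin (((i : ℝ) + 1) * θ)) := by
  refine b3_closed_sin ρ θ (a * (c - 1)) (a - 1)
    (fun i => ((RA a * RC c v) ^ i * RA a).trace) ?_ ?_ ?_ i
  · intro i
    have h := b3_trace_rec (RA a * RC c v) (RA a) i
    rw [b3_trace_AC, b3_det_AC, hx, ← hρ] at h
    exact h
  · simp [b3_trace_RA]
  · simp only [pow_one]; rw [b3_trace_ACA, hx]; ring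

theorem b3_gamma (hx : v - a - c = 2 * ρ * cos θ) (hρ : ρ ^ 2 = a * c) (i : ℕ) :
    ρ * sin θ * ((RC c v * RA a) ^ i * RC c v).trace
      = ρ ^ i * (c * (a - 1) * sin (i * θ) + ρ * (c - 1) * sin (((i : ℝ) + 1) * θ)) := by
  refine b3_closed_sin ρ θ (c * (a - 1)) (c - 1)
    (fun i => ((RC c v * RA a) ^ i * RC c v).trace) ?_ ?_ ?_ i
  · intro i
    have h := b3_trace_rec (RC c v * RA a) (RC c v) i
    rw [b3_trace_CA, b3_det_CA, hx, ← hρ] at h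
    exact h
  · simp [b3_trace_RC]
  · simp only [pow_one]; rw [b3_trace_CAC, hx]; ring

end spec

/-! ### the summands of `Ssum` -/

section summand

variable {a c v ρ θ : ℝ}

theorem b3_F_even (ha : 0 < a) (hρ0 : 0 < ρ) (hs : sin θ ≠ 0)
    (hx : v - a - c = 2 * ρ * cos θ) (hρ : ρ ^ 2 = a * c) (i : ℕ) :
    (wt c a (2 * i))⁻¹ * (Matrix.trace (alt (RC c v) (RA a) (2 * i))) ^ 2
      + (wt a c (2 * i + 1))⁻¹ * (Matrix.trace (alt (RA a) (RC c v) (2 * i + 1))) ^ 2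
    = 4 * cos (i * θ) ^ 2
      + (a * (c - 1) * sin (i * θ) + ρ * (a - 1) * sin (((i : ℝ) + 1) * θ)) ^ 2
        / (a * ρ ^ 2 * sin θ ^ 2) := by
  have hr : ρ ^ i ≠ 0 := pow_ne_zero _ hρ0.ne'
  have hw : (c * a) ^ i = (ρ ^ i) ^ 2 := by
    rw [mul_comm c a, ← hρ, ← pow_mul, ← pow_mul, mul_comm]
  have hα := b3_alpha (θ := θ) hx hρ i
  rw [wt_succ, wt_two_mul, b3_alt_two_mul, b3_alt_two_mul_succ, b3_T' hx hρ, hw]
  set α := ((RA a * RC c v) ^ i * RA a).trace with hαdef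
  set E := a * (c - 1) * sin (i * θ) + ρ * (a - 1) * sin (((i : ℝ) + 1) * θ) with hE
  have hα' : α = ρ ^ i * E / (ρ * sin θ) := by
    rw [eq_div_iff (mul_ne_zero hρ0.ne' hs)]; linarith
  rw [hα']
  field_simp
  ring

theorem b3_F_odd (hc : 0 < c) (hρ0 : 0 < ρ) (hs : sin θ ≠ 0)
    (hx : v - a - c = 2 * ρ * cos θ) (hρ : ρ ^ 2 = a * c) (i : ℕ) :
    (wt c a (2 * i + 1))⁻¹ * (Matrix.trace (alt (RC c v) (RA a) (2 * i + 1))) ^ 2
      + (wt a c (2 * i + 1 + 1))⁻¹ * (Matrix.trace (alt (RA a) (RC c v) (2 * i + 1 + 1))) ^ 2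
    = (c * (a - 1) * sin (i * θ) + ρ * (c - 1) * sin (((i : ℝ) + 1) * θ)) ^ 2
        / (c * ρ ^ 2 * sin θ ^ 2)
      + 4 * cos (((i : ℝ) + 1) * θ) ^ 2 := by
  have hr : ρ ^ i ≠ 0 := pow_ne_zero _ hρ0.ne'
  have hr1 : ρ ^ (i + 1) ≠ 0 := pow_ne_zero _ hρ0.ne'
  have hw : (a * c) ^ i = (ρ ^ i) ^ 2 := by
    rw [← hρ, ← pow_mul, ← pow_mul, mul_comm]
  have hw1 : (a * c) ^ (i + 1) = (ρ ^ (i + 1)) ^ 2 := by
    rw [← hρ, ← pow_mul, ← pow_mul, mul_comm]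
  have hγ := b3_gamma (θ := θ) hx hρ i
  have e : 2 * i + 1 + 1 = 2 * (i + 1) := by ring
  rw [e, wt_succ, wt_two_mul, wt_two_mul, b3_alt_two_mul, b3_alt_two_mul_succ, b3_T hx hρ, hw, hw1]
  set γ := ((RC c v * RA a) ^ i * RC c v).trace with hγdef
  set E := c * (a - 1) * sin (i * θ) + ρ * (c - 1) * sin (((i : ℝ) + 1) * θ) with hE
  have hγ' : γ = ρ ^ i * E / (ρ * sin θ) := by
    rw [eq_div_iff (mul_ne_zero hρ0.ne' hs)]; linarith
  rw [hγ']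
  push_cast
  field_simp
  ring

end summand

/-! ### splitting sums by parity -/

theorem b3_sum_even (f : ℕ → ℝ) (M : ℕ) :
    ∑ k ∈ range (2 * M), f k = ∑ i ∈ range M, (f (2 * i) + f (2 * i + 1)) := by
  induction M with
  | zero => simp
  | succ n ih =>
    rw [show 2 * (n + 1) = 2 * n + 1 + 1 by ring, sum_range_succ, sum_range_succ, ih,
      sum_range_succ]
    ring

theorem b3_sum_odd (f : ℕ → ℝ) (h : ℕ) :
    ∑ k ∈ range (2 * h + 1), f k = ∑ i ∈ range h, (f (2 * i) + f (2 * i + 1)) + f (2 * h) := by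
  rw [sum_range_succ, b3_sum_even]

theorem b3_sum_E {θ : ℝ} {M : ℕ} (P Q : ℝ) (hs : sin θ ≠ 0) (hM : sin (M * θ) = 0) :
    ∑ i ∈ range M, (P * sin (i * θ) + Q * sin (((i : ℝ) + 1) * θ)) ^ 2
      = P ^ 2 * (M / 2) + 2 * P * Q * (M / 2 * cos θ) + Q ^ 2 * (M / 2) := by
  have h : ∀ i : ℕ, (P * sin (i * θ) + Q * sin (((i : ℝ) + 1) * θ)) ^ 2
      = P ^ 2 * sin (i * θ) ^ 2 + 2 * P * Q * (sin (i * θ) * sin (((i : ℝ) + 1) * θ))
        + Q ^ 2 * sin (((i : ℝ) + 1) * θ) ^ 2 := by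
    intro i; ring
  simp only [h, sum_add_distrib, ← mul_sum]
  rw [Cfsg.Agent.Lib.Helper96.FHTrig.sum_sin_sq hs hM,
    Cfsg.Agent.Lib.Helper96.FHTrig.sum_sin_mul_sin_succ hs hM,
    Cfsg.Agent.Lib.Helper96.FHTrig.sum_sin_sq_succ hs hM]

theorem b3_sum_cos_sq_succ {θ : ℝ} {M : ℕ} (hs : sin θ ≠ 0) (hM : sin (M * θ) = 0) :
    ∑ i ∈ range M, cos (((i : ℝ) + 1) * θ) ^ 2 = M / 2 := by
  have h : ∀ i : ℕ, cos (((i : ℝ) + 1) * θ) ^ 2 = 1 - sin (((i : ℝ) + 1) * θ) ^ 2 := by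
    intro i
    have := sin_sq_add_cos_sq (((i : ℝ) + 1) * θ)
    linarith
  simp only [h, sum_sub_distrib, Cfsg.Agent.Lib.Helper96.FHTrig.sum_sin_sq_succ hs hM, sum_const,
    card_range, nsmul_eq_mul]
  ring

/-! ### the even case -/

theorem b3_alg_even (a c ρ u s2 M : ℝ) (ha : a ≠ 0) (hc : c ≠ 0) (hρ2 : ρ ^ 2 = a * c)
    (hs2 : s2 = 1 - u ^ 2) (hs : s2 ≠ 0) :
    4 * (M / 2)
      + ((a * (c - 1)) ^ 2 * (M / 2) + 2 * (a * (c - 1)) * (ρ * (a - 1)) * (M / 2 * u)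
          + (ρ * (a - 1)) ^ 2 * (M / 2)) / (a * ρ ^ 2 * s2)
      + (((c * (a - 1)) ^ 2 * (M / 2) + 2 * (c * (a - 1)) * (ρ * (c - 1)) * (M / 2 * u)
          + (ρ * (c - 1)) ^ 2 * (M / 2)) / (c * ρ ^ 2 * s2) + 4 * (M / 2))
    = 2 * (2 * M) * (a + c + 2 * ρ * u) * (a * c + 1 - 2 * ρ * u)
        / (4 * a * c - (2 * ρ * u) ^ 2) := by
  have hρ : ρ ≠ 0 := by
    intro h; rw [h] at hρ2
    have : a * c ≠ 0 := mul_ne_zero ha hc
    exact this (by rw [← hρ2]; ring)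
  subst hs2
  have hden : 4 * a * c - (2 * ρ * u) ^ 2 = 4 * ρ ^ 2 * (1 - u ^ 2) := by
    linear_combination (-4) * hρ2
  rw [hden]
  have hc' : c = ρ ^ 2 / a := by field_simp; linarith
  subst hc'
  field_simp
  ring

theorem b3_Ssum_even {M a c : ℕ} (ha : 2 ≤ a) (hc : 2 ≤ c) {j : ℕ} (hj : 0 < j) (hjM : j < M) :
    Ssum (2 * M) (a : ℝ) (c : ℝ) (RA a) (RC c (a + c + xval a c (2 * M) j))
      = 2 * ((2 * M : ℕ) : ℝ) * (a + c + xval a c (2 * M) j) * (a * c + 1 - xval a c (2 * M) j)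
        / (4 * a * c - xval a c (2 * M) j ^ 2) := by
  have ha' : (0 : ℝ) < a := by exact_mod_cast (by omega : 0 < a)
  have hc' : (0 : ℝ) < c := by exact_mod_cast (by omega : 0 < c)
  have hM0 : (M : ℝ) ≠ 0 := by exact_mod_cast (by omega : M ≠ 0)
  obtain ⟨ρ, hρdef⟩ : ∃ ρ : ℝ, ρ = Real.sqrt ((a : ℝ) * c) := ⟨_, rfl⟩
  obtain ⟨θ, hθdef⟩ : ∃ θ : ℝ, θ = 2 * π * j / ((2 * M : ℕ) : ℝ) := ⟨_, rfl⟩
  have hρ2 : ρ ^ 2 = (a : ℝ) * c := by rw [hρdef]; exact Real.sq_sqrt (by positivity)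
  have hρ0 : 0 < ρ := by rw [hρdef]; exact Real.sqrt_pos.mpr (by positivity)
  have hxθ : xval a c (2 * M) j = 2 * ρ * cos θ := by rw [hρdef, hθdef]; rfl
  have hθ : θ = π * j / M := by rw [hθdef]; push_cast; field_simp
  have hs : sin θ ≠ 0 := by
    rw [hθ]; exact Cfsg.Agent.Lib.Helper96.FHTrig.sin_ne_zero_even hj hjM
  have hMθ : sin (M * θ) = 0 := by
    rw [hθ]; exact Cfsg.Agent.Lib.Helper96.FHTrig.sin_mul_eq_zero_even (by omega)
  rw [hxθ]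
  have hx : ((a : ℝ) + c + 2 * ρ * cos θ) - a - c = 2 * ρ * cos θ := by ring
  unfold Ssum
  rw [b3_sum_even]
  simp only [b3_F_even ha' hρ0 hs hx hρ2, b3_F_odd hc' hρ0 hs hx hρ2]
  simp only [sum_add_distrib, ← mul_sum, ← sum_div]
  rw [b3_sum_E _ _ hs hMθ, b3_sum_E _ _ hs hMθ, Cfsg.Agent.Lib.Helper96.FHTrig.sum_cos_sq hs hMθ,
    b3_sum_cos_sq_succ hs hMθ]
  have key := b3_alg_even a c ρ (cos θ) (sin θ ^ 2) M ha'.ne' hc'.ne' hρ2
    (by have := sin_sq_add_cos_sq θ; linarith) (pow_ne_zero 2 hs)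
  rw [key]
  push_cast
  ring

/-! ### the odd case -/

theorem b3_sum_E_odd {θ : ℝ} {h : ℕ} (P : ℝ) (hs : sin θ ≠ 0)
    (hsin : sin ((2 * h + 1) * θ) = 0) (hcos : cos ((2 * h + 1) * θ) = 1) :
    ∑ i ∈ range h, (P * sin (i * θ) + P * sin (((i : ℝ) + 1) * θ)) ^ 2
      = P ^ 2 * (4 * cos (θ / 2) ^ 2) * ((2 * h + 1) / 4) := by
  have hi : ∀ i : ℕ, (P * sin (i * θ) + P * sin (((i : ℝ) + 1) * θ)) ^ 2
      = P ^ 2 * (4 * cos (θ / 2) ^ 2) * sin ((2 * i + 1) * θ / 2) ^ 2 := by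
    intro i
    rw [← mul_add, Cfsg.Agent.Lib.Helper96.FHTrig.sin_add_sin_succ θ i]; ring
  simp only [hi, ← mul_sum]
  rw [Cfsg.Agent.Lib.Helper96.FHTrig.sum_sin_sq_half_odd hs hsin hcos]

theorem b3_sum_cos_sq_succ_odd {θ : ℝ} {h : ℕ} (hs : sin θ ≠ 0)
    (hsin : sin ((2 * h + 1) * θ) = 0) :
    ∑ i ∈ range h, cos (((i : ℝ) + 1) * θ) ^ 2 = h / 2 - 1 / 4 := by
  have hi : ∀ i : ℕ, cos (((i : ℝ) + 1) * θ) ^ 2 = 1 / 2 + cos (2 * ((i : ℝ) + 1) * θ) / 2 := by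
    intro i
    have : 2 * ((i : ℝ) + 1) * θ = 2 * (((i : ℝ) + 1) * θ) := by ring
    rw [this, cos_sq]
  simp only [hi, sum_add_distrib, ← sum_div,
    Cfsg.Agent.Lib.Helper96.FHTrig.sum_cos_two_mul_succ_odd hs hsin, sum_const, card_range,
    nsmul_eq_mul]
  ring

theorem b3_sum_cos_sq_odd {θ : ℝ} {h : ℕ} (hs : sin θ ≠ 0)
    (hsin : sin ((2 * h + 1) * θ) = 0) :
    ∑ i ∈ range h, cos ((i : ℝ) * θ) ^ 2 + cos ((h : ℝ) * θ) ^ 2 = 1 + (h / 2 - 1 / 4) := by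
  rw [← sum_range_succ (fun i : ℕ => cos ((i : ℝ) * θ) ^ 2) h, sum_range_succ',
    ← b3_sum_cos_sq_succ_odd hs hsin]
  simp only [Nat.cast_zero, zero_mul, cos_zero, one_pow, Nat.cast_add, Nat.cast_one]
  ring

theorem b3_alg_odd (q σ κ h : ℝ) (hq : q ≠ 0) (hσ : σ ≠ 0) (hκ : κ ≠ 0) :
    4 * (1 + (h / 2 - 1 / 4)) + 4 * (h / 2 - 1 / 4)
      + 2 * ((q * (q - 1)) ^ 2 * (4 * κ ^ 2) * ((2 * h + 1) / 4) / (q * q ^ 2 * (2 * σ * κ) ^ 2))
    = 2 * (2 * h + 1) * (q ^ 2 + 1 - 2 * q * (1 - 2 * σ ^ 2)) / (2 * q - 2 * q * (1 - 2 * σ ^ 2)) := by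
  have e : 2 * q - 2 * q * (1 - 2 * σ ^ 2) = 4 * q * σ ^ 2 := by ring
  rw [e]
  field_simp
  ring

theorem b3_Ssum_odd {h q : ℕ} (hq : 2 ≤ q) {j : ℕ} (hj : 0 < j) (hjh : 2 * j < 2 * h + 1) :
    Ssum (2 * h + 1) (q : ℝ) (q : ℝ) (RA q) (RC q (q + q + xval q q (2 * h + 1) j))
      = 2 * ((2 * h + 1 : ℕ) : ℝ) * ((q : ℝ) ^ 2 + 1 - xval q q (2 * h + 1) j)
        / (2 * q - xval q q (2 * h + 1) j) := by
  have hq' : (0 : ℝ) < q := by exact_mod_cast (by omega : 0 < q)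
  obtain ⟨θ, hθdef⟩ : ∃ θ : ℝ, θ = 2 * π * j / ((2 * h + 1 : ℕ) : ℝ) := ⟨_, rfl⟩
  have hθ : θ = 2 * π * j / (2 * h + 1) := by rw [hθdef]; push_cast; rfl
  have hρ2 : (q : ℝ) ^ 2 = (q : ℝ) * q := sq _
  have hxθ : xval q q (2 * h + 1) j = 2 * q * cos θ := by
    rw [hθdef]
    show 2 * Real.sqrt ((q : ℝ) * q) * _ = _
    rw [Real.sqrt_mul_self hq'.le]
  have hs : sin θ ≠ 0 := by
    rw [hθ]; exact Cfsg.Agent.Lib.Helper96.FHTrig.sin_ne_zero_odd hj hjh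
  have hsin : sin ((2 * (h : ℝ) + 1) * θ) = 0 := by
    rw [hθ]; exact Cfsg.Agent.Lib.Helper96.FHTrig.sin_mul_eq_zero_odd h j
  have hcos : cos ((2 * (h : ℝ) + 1) * θ) = 1 := by
    rw [hθ]; exact Cfsg.Agent.Lib.Helper96.FHTrig.cos_mul_eq_one_odd h j
  have hhalf : sin ((2 * (h : ℝ) + 1) * θ / 2) = 0 := by
    have hm : (2 * (h : ℝ) + 1) ≠ 0 := by positivity
    have : (2 * (h : ℝ) + 1) * θ / 2 = (j : ℝ) * π := by rw [hθ]; field_simp
    rw [this]; exact sin_nat_mul_pi j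
  have hsθ : sin θ = 2 * sin (θ / 2) * cos (θ / 2) := by
    have : θ = 2 * (θ / 2) := by ring
    conv_lhs => rw [this]
    rw [sin_two_mul]
  have hcθ : cos θ = 1 - 2 * sin (θ / 2) ^ 2 := by
    have : θ = 2 * (θ / 2) := by ring
    conv_lhs => rw [this]
    rw [cos_two_mul']
    have := sin_sq_add_cos_sq (θ / 2)
    linarith
  have hσ : sin (θ / 2) ≠ 0 := by
    intro h0; apply hs; rw [hsθ, h0]; ring
  have hκ : cos (θ / 2) ≠ 0 := by
    intro h0; apply hs; rw [hsθ, h0]; ring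
  rw [hxθ]
  have hx : ((q : ℝ) + q + 2 * q * cos θ) - q - q = 2 * q * cos θ := by ring
  unfold Ssum
  rw [b3_sum_odd]
  simp only [b3_F_even hq' hq' hs hx hρ2, b3_F_odd hq' hq' hs hx hρ2]
  simp only [sum_add_distrib, ← mul_sum, ← sum_div]
  have hlast : ((q : ℝ) * (q - 1) * sin (h * θ) + q * (q - 1) * sin (((h : ℝ) + 1) * θ)) = 0 := by
    rw [← mul_add, Cfsg.Agent.Lib.Helper96.FHTrig.sin_add_sin_succ θ h, hhalf]; ring
  rw [hlast, b3_sum_E_odd _ hs hsin hcos, b3_sum_cos_sq_succ_odd hs hsin]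
  have hc1 := b3_sum_cos_sq_odd (θ := θ) (h := h) hs hsin
  have key := b3_alg_odd q (sin (θ / 2)) (cos (θ / 2)) h hq'.ne' hσ hκ
  rw [hsθ, hcθ]
  rw [← hsθ]
  push_cast
  rw [← key]
  rw [hsθ]
  linear_combination 4 * hc1

/-! ### WP-B3 -/

/-- **WP-B3** (exact skeleton statement): the closed form of `Ssum` for the explicit
2-dimensional representation. -/
theorem Ssum_R {m a c : ℕ} (hm : 2 ≤ m) (ha : 2 ≤ a) (hc : 2 ≤ c) (hodd : Odd m → a = c)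
    {j : ℕ} (hj : 0 < j) (hj2 : 2 * j < m) :
    Ssum m (a : ℝ) (c : ℝ) (RA a) (RC c (a + c + xval a c m j)) = Sval a c m j := by
  rcases Nat.even_or_odd' m with ⟨M, rfl | rfl⟩
  · have hjM : j < M := by omega
    rw [b3_Ssum_even ha hc hj hjM]
    unfold Sval
    rw [if_pos (even_two_mul M)]
  · have hac : a = c := hodd ⟨M, rfl⟩
    subst hac
    rw [b3_Ssum_odd ha hj hj2]
    unfold Sval
    rw [if_neg (by simp)]

end Cfsg.Agent.Lib.Lead.FH
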